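import Mathlib
import Cfsg.Prelude.Def_Solvable

/-!
# Frobenius complements from fixed-point-free actions

`exists_of_action`: a nontrivial finite group acting fixed-point-freely by automorphisms on a nontrivial
finite group is (isomorphic to) a Frobenius complement.

`exists_of_units`: the same for a group embedded in the units of a finite field.

`exists_of_sl`: the same for a group embedded in `SL₂(p)` whose order is prime to `p`.
-/

set_option autoImplicit false
open Cfsg

namespace Cfsg.Agent.H561.FrobComp

/-- A nontrivial finite group acting fixed-point-freely on a nontrivial finite group is a Frobenius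
complement. -/
theorem exists_of_action {V C : Type} [Group V] [Finite V] [Nontrivial V] [Group C] [Finite C]
    [Nontrivial C] (φ : C →* MulAut V) (hfpf : ∀ c : C, c ≠ 1 → ∀ v : V, φ c v = v → v = 1) :
    ∃ (L : Type) (_ : Group L) (_ : Finite L) (H : Subgroup L),
      Cfsg.IsFrobeniusComplement H ∧ Nonempty (H ≃* C) := by
  let L : Type := V ⋊[φ] C
  have hfin : Finite L := Finite.of_equiv _ (SemidirectProduct.equivProd (φ := φ)).symm
  let ι : C →* L := SemidirectProduct.inr
  have hι : Function.Injective ι := SemidirectProduct.inr_injective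
  refine ⟨L, inferInstance, hfin, ι.range, ⟨?_, ?_, ?_⟩,
    ⟨(MonoidHom.ofInjective hι).symm⟩⟩
  · intro h
    obtain ⟨c, hc⟩ := exists_ne (1 : C)
    have h1 : ι c ∈ ι.range := ⟨_, rfl⟩
    rw [h, Subgroup.mem_bot] at h1
    exact hc (hι (by rw [h1, map_one]))
  · intro h
    obtain ⟨v, hv⟩ := exists_ne (1 : V)
    have h1 : (SemidirectProduct.inl v : L) ∈ ι.range := by
      rw [h]; trivial
    obtain ⟨s, hs⟩ := h1
    have h2 := congrArg SemidirectProduct.left hs
    exact hv (Eq.symm h2)
  · intro g hg
    rw [eq_bot_iff]
    intro h hh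
    obtain ⟨⟨a, rfl⟩, h2⟩ := Subgroup.mem_inf.1 hh
    rw [Subgroup.mem_bot]
    rw [Subgroup.mem_smul_pointwise_iff_exists] at h2
    obtain ⟨_, ⟨b, rfl⟩, hb⟩ := h2
    have hb' : g * ι b * g⁻¹ = ι a := hb
    have hb2 : g * ι b = ι a * g := by rw [← hb', inv_mul_cancel_right]
    have hl := congrArg SemidirectProduct.left hb2
    have hl' : g.left * φ g.right 1 = 1 * φ a g.left := hl
    rw [map_one, mul_one, one_mul] at hl'
    by_cases ha : a = 1
    · rw [ha, map_one]
    · exfalso
      have h1 : g.left = 1 := hfpf a ha g.left hl'.symm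
      apply hg
      refine ⟨g.right, ?_⟩
      apply SemidirectProduct.ext
      · exact h1.symm
      · rfl

/-- The action of a group of linear automorphisms on the additive group. -/
noncomputable def linAct {K M : Type*} [Semiring K] [AddCommMonoid M] [Module K M] :
    (M ≃ₗ[K] M) →* MulAut (Multiplicative M) where
  toFun e :=
    { toFun := fun v => Multiplicative.ofAdd (e v.toAdd)
      invFun := fun v => Multiplicative.ofAdd (e.symm v.toAdd)
      left_inv := fun v => congrArg Multiplicative.ofAdd (e.symm_apply_apply v.toAdd)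
      right_inv := fun v => congrArg Multiplicative.ofAdd (e.apply_symm_apply v.toAdd)
      map_mul' := fun a b => congrArg Multiplicative.ofAdd (map_add e a.toAdd b.toAdd) }
  map_one' := rfl
  map_mul' _ _ := rfl

theorem linAct_apply {K M : Type*} [Semiring K] [AddCommMonoid M] [Module K M] (e : M ≃ₗ[K] M)
    (v : Multiplicative M) : linAct e v = Multiplicative.ofAdd (e v.toAdd) := rfl

/-- Version for linear actions. -/
theorem exists_of_linear {K M C : Type} [Semiring K] [AddCommGroup M] [Module K M] [Finite M]
    [Nontrivial M] [Group C] [Finite C] [Nontrivial C] (ρ : C →* (M ≃ₗ[K] M))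
    (hfpf : ∀ c : C, c ≠ 1 → ∀ v : M, ρ c v = v → v = 0) :
    ∃ (L : Type) (_ : Group L) (_ : Finite L) (H : Subgroup L),
      Cfsg.IsFrobeniusComplement H ∧ Nonempty (H ≃* C) := by
  have : Finite (Multiplicative M) := inferInstanceAs (Finite M)
  have : Nontrivial (Multiplicative M) := inferInstanceAs (Nontrivial M)
  refine exists_of_action ((linAct (K := K) (M := M)).comp ρ) ?_
  intro c hc v hv
  have h := hfpf c hc v.toAdd (congrArg Multiplicative.toAdd hv)
  exact congrArg Multiplicative.ofAdd h

/-- Groups embedded in the units of a finite field. -/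
theorem exists_of_units {K C : Type} [Field K] [Finite K] [Group C] [Nontrivial C]
    (f : C →* Kˣ) (hf : Function.Injective f) :
    ∃ (L : Type) (_ : Group L) (_ : Finite L) (H : Subgroup L),
      Cfsg.IsFrobeniusComplement H ∧ Nonempty (H ≃* C) := by
  have : Finite C := Finite.of_injective f hf
  refine exists_of_linear (K := K) (M := K) ((DistribMulAction.toModuleAut K K).comp f) ?_
  intro c hc v hv
  by_contra hv0
  apply hc
  apply hf
  rw [map_one]
  have h1 : ((f c : Kˣ) : K) * v = v := hv
  ext
  exact mul_right_cancel₀ hv0 (by rw [h1, Units.val_one, one_mul])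

/-- A `2 × 2` matrix of determinant one, of order dividing `n` with `n` invertible, and with a nonzero fixed
vector is trivial. -/
theorem eq_one_of_fixed {K : Type*} [Field K] (A : Matrix (Fin 2) (Fin 2) K) (hdet : A.det = 1)
    (n : ℕ) (hn0 : (n : K) ≠ 0) (hpow : A ^ n = 1) (v : Fin 2 → K)
    (hv : v ≠ 0) (hfix : A.mulVec v = v) : A = 1 := by
  have h0 : (A - 1).det = 0 := by
    rw [← Matrix.exists_mulVec_eq_zero_iff]
    refine ⟨v, hv, ?_⟩
    rw [Matrix.sub_mulVec, hfix, Matrix.one_mulVec, sub_self]
  rw [Matrix.det_fin_two] at h0 hdet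
  simp only [Matrix.sub_apply, Matrix.one_apply_eq, ne_eq, not_false_eq_true,
    zero_ne_one, one_ne_zero, Matrix.one_apply_ne, sub_zero] at h0
  have htr : A 0 0 + A 1 1 = 2 := by linear_combination hdet - h0
  have hsq : (A - 1) * (A - 1) = 0 := by
    ext i j
    rw [Matrix.mul_apply, Fin.sum_univ_two]
    fin_cases i <;> fin_cases j <;>
      simp only [Matrix.sub_apply, Matrix.one_apply_eq, ne_eq, not_false_eq_true,
        zero_ne_one, one_ne_zero, Matrix.one_apply_ne, sub_zero, Matrix.zero_apply,
        Fin.zero_eta, Fin.mk_one, Fin.isValue]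
    · linear_combination (A 0 0) * htr - hdet
    · linear_combination (A 0 1) * htr
    · linear_combination (A 1 0) * htr
    · linear_combination (A 1 1) * htr - hdet
  have hn : ∀ m : ℕ, A ^ m = 1 + (m : K) • (A - 1) := by
    intro m
    induction m with
    | zero => simp
    | succ m ih =>
      have e : (A - 1) * A = A - 1 := by
        have h := hsq
        rw [mul_sub, mul_one, sub_eq_zero] at h
        exact h
      rw [pow_succ, ih, add_mul, one_mul, smul_mul_assoc, e, Nat.cast_succ, add_smul, one_smul]
      abel
  have h1 := hn n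
  rw [hpow, left_eq_add] at h1
  rcases smul_eq_zero.1 h1 with h | h
  · exact absurd h hn0
  · exact sub_eq_zero.1 h

/-- Groups embedded in `SL₂` of a finite field, of order prime to the characteristic. -/
theorem exists_of_sl {K C : Type} [Field K] [Finite K] [Group C] [Nontrivial C]
    (f : C →* Matrix.SpecialLinearGroup (Fin 2) K) (hf : Function.Injective f)
    (hcard : (Nat.card C : K) ≠ 0) :
    ∃ (L : Type) (_ : Group L) (_ : Finite L) (H : Subgroup L),
      Cfsg.IsFrobeniusComplement H ∧ Nonempty (H ≃* C) := by
  have : Finite C := Finite.of_injective f hf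
  refine exists_of_linear (K := K) (M := Fin 2 → K) (Matrix.SpecialLinearGroup.toLin'.comp f) ?_
  intro c hc v hv
  by_contra hv0
  apply hc
  apply hf
  rw [map_one]
  have h1 : ((f c : Matrix.SpecialLinearGroup (Fin 2) K) : Matrix (Fin 2) (Fin 2) K).mulVec v = v := by
    have h2 := hv
    rw [MonoidHom.comp_apply, Matrix.SpecialLinearGroup.toLin'_apply, Matrix.toLin'_apply] at h2
    exact h2
  apply Subtype.ext
  rw [Matrix.SpecialLinearGroup.coe_one]
  refine eq_one_of_fixed _ (f c).2 (Nat.card C) hcard ?_ v hv0 h1
  have h2 : (f c) ^ Nat.card C = 1 := by rw [← map_pow, pow_card_eq_one', map_one]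
  rw [← Matrix.SpecialLinearGroup.coe_pow, h2, Matrix.SpecialLinearGroup.coe_one]

end Cfsg.Agent.H561.FrobComp
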